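import Cfsg.Agent.H548.BS.Main
import Cfsg.Agent.TwoFusion.SLTwoFacts
import Cfsg.Agent.S0249
import Cfsg.Agent.S0270
import Cfsg.Agent.S0283

/-!
# S5733: the named classical groups are simple, `BdRowS → BdRow`
-/

set_option autoImplicit false

namespace Cfsg.Agent.H548.BS

open Module Cfsg Cfsg.Agent.H851.Dg Cfsg.Agent.H847.Bs Cfsg.Agent.OrdDiv Cfsg.Agent.H436
open Cfsg.Agent.H278.El.AltNum (dimOf)
open Cfsg.Agent.H598.ExcFth (IsExc)
open QuadraticMap Cfsg.Agent.LieClassical.OrthCore Cfsg.Agent.LieClassical.OrthTrans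
  Cfsg.Agent.LieClassical.OrthFinite Cfsg.Agent.LieClassical.OrthForms

theorem two_ne_zero_of_odd {F : Type} [Field F] [Fintype F] (ho : Odd (Fintype.card F)) : (2 : F) ≠ 0 := by
  intro h2
  have h3' : CharP F 2 := by
    refine (CharP.charP_iff_prime_eq_zero Nat.prime_two).2 ?_
    exact_mod_cast h2
  have h3 : ringChar F = 2 := ringChar.eq_iff.2 h3'
  have h4 := FiniteField.even_card_iff_char_two.1 h3
  have := Nat.odd_iff.1 ho
  omega

/-- **The named classical groups are simple.** -/
theorem simple_cl {g : Grp} {T : Type} [Group T] (hT : IsNamed g T) (hg : Cl g) : IsSimpleGroup T := by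
  cases g with
  | psl n q =>
    obtain ⟨F, _, _, hF, ⟨e⟩⟩ := hT.real
    have hs : IsSimpleGroup (Matrix.ProjectiveSpecialLinearGroup (Fin n) F) := by
      rcases Nat.lt_or_ge 2 n with h | h
      · exact S0249.result n h
      · have hn : n = 2 := le_antisymm h hT.cond.1
        subst hn
        exact TwoFusion.SLTwoFacts.isSimpleGroup_psl (by
          have := hT.cond.2.1 rfl
          omega)
    exact e.isSimpleGroup
  | psp m q =>
    obtain ⟨F, _, _, hF, ⟨e⟩⟩ := hT.real
    have hs : IsSimpleGroup (PSp m F) := S0270.result m hT.cond.1 (by rw [hF]; exact hT.cond.2.1)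
    exact e.isSimpleGroup
  | psu n q =>
    obtain ⟨F, _, _, hF, ⟨e⟩⟩ := hT.real
    have hs : IsSimpleGroup (PSU n F q) := S0283.result hF n hT.cond.1 hT.cond.2.1
    exact e.isSimpleGroup
  | oodd m q =>
    obtain ⟨F, _, _, hF, ⟨e⟩⟩ := hT.real
    have hm : 3 ≤ m := hT.cond.1
    have h2 : (2 : F) ≠ 0 := two_ne_zero_of_odd (by rw [hF]; exact hT.cond.2.1)
    have hs := isSimpleGroup_POmega (nondeg_oddForm (F := F) (m := m) h2) (by
      rw [Fintype.card_sum, Fintype.card_sum, Fintype.card_fin, Fintype.card_unit]; omega)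
    rw [coe_oddForm] at hs
    exact e.isSimpleGroup
  | oplus m q =>
    obtain ⟨F, _, _, hF, ⟨e⟩⟩ := hT.real
    have hm : 4 ≤ m := hT.cond.1
    have hs := isSimpleGroup_POmega (nondeg_plusForm (F := F) (m := m)) (by
      rw [Fintype.card_sum, Fintype.card_fin]; omega)
    rw [coe_plusForm] at hs
    exact e.isSimpleGroup
  | ominus m q =>
    obtain ⟨F, _, _, a, b, hF, hab, ⟨e⟩⟩ := hT.real
    have hm : 4 ≤ m := hT.cond.1
    have hs := isSimpleGroup_POmega (nondeg_minusForm (F := F) (m := m - 1) a b hab) (by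
      rw [Fintype.card_sum, Fintype.card_sum, Fintype.card_fin, Fintype.card_fin]; omega)
    rw [coe_minusForm] at hs
    exact e.isSimpleGroup
  | _ => exact hg.elim

theorem bdRow_of (h : BdRowS) : BdRow := by
  intro d
  obtain ⟨c, hc, h⟩ := h d
  refine ⟨c, hc, fun g T _ _ hT hg => ?_⟩
  have := simple_cl hT hg.1
  exact h g T hT hg

end Cfsg.Agent.H548.BS
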